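import Cfsg.Agent.Lib.Solv.Frob

set_option autoImplicit false
set_option linter.unusedSectionVars false
set_option linter.style.haveILetI false

open Pointwise

namespace CfsgLib.Solv

open Subgroup Cfsg

universe u

variable {G : Type u} [Group G] [Finite G]

/-- Product of two subgroups with coprime orders filling a subgroup. -/
theorem mul_eq_of_coprime_cards {A B Y : Subgroup G} (hAY : A ≤ Y) (hBY : B ≤ Y)
    (hcard : Nat.card A * Nat.card B = Nat.card Y) (hcop : (Nat.card A).Coprime (Nat.card B)) :
    (A : Set G) * (B : Set G) = (Y : Set G) := by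
  ext y
  constructor
  · rintro ⟨a, ha, b, hb, rfl⟩
    exact Y.mul_mem (hAY ha) (hBY hb)
  · intro hy
    have hc : IsComplement' (A.subgroupOf Y) (B.subgroupOf Y) := by
      apply Subgroup.isComplement'_of_coprime
      · rw [card_subgroupOf_of_le hAY, card_subgroupOf_of_le hBY, hcard]
      · rw [card_subgroupOf_of_le hAY, card_subgroupOf_of_le hBY]
        exact hcop
    obtain ⟨⟨⟨a, ha⟩, ⟨b, hb⟩⟩, he⟩ := hc.2 ⟨y, hy⟩
    refine ⟨a, ha, b, hb, ?_⟩
    exact congrArg Subtype.val he

theorem exists_hall_complement [Group.IsSolvable G] (q : ℕ) (hq : q.Prime) :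
    ∃ H : Subgroup G, H.index = q ^ (Nat.card G).factorization q := by
  have hN : Nat.card G ≠ 0 := Nat.card_pos.ne'
  have h1 : Nat.card G = ordCompl[q] (Nat.card G) * q ^ (Nat.card G).factorization q := by
    rw [mul_comm]
    exact (Nat.ordProj_mul_ordCompl_eq_self _ _).symm
  have hcop : (ordCompl[q] (Nat.card G)).Coprime (q ^ (Nat.card G).factorization q) :=
    (Nat.Coprime.pow_left _ (Nat.coprime_ordCompl hq hN)).symm
  obtain ⟨H, hH, -⟩ := hall_containing _ G rfl _ _ h1 hcop ⊥ (by simp)
  refine ⟨H, ?_⟩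
  have h2 := Subgroup.card_mul_index H
  rw [hH] at h2
  have hpos : 0 < ordCompl[q] (Nat.card G) := Nat.ordCompl_pos q hN
  apply Nat.eq_of_mul_eq_mul_left hpos
  rw [h2]
  exact h1

/-- S0020: Sylow systems. -/
theorem exists_sylow_system [Group.IsSolvable G] :
    ∃ S : (p : Nat.Primes) → Sylow (p : ℕ) G,
      ∀ p q : Nat.Primes, (S p : Set G) * (S q : Set G) = (S q : Set G) * (S p : Set G) := by
  classical
  set N := Nat.card G with hN
  have hN0 : N ≠ 0 := Nat.card_pos.ne'
  set v : ℕ → ℕ := fun q => N.factorization q with hv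
  have hHex : ∀ q : ℕ, ∃ H : Subgroup G, q.Prime → H.index = q ^ v q := by
    intro q
    by_cases hq : q.Prime
    · obtain ⟨H, hH⟩ := exists_hall_complement (G := G) q hq
      exact ⟨H, fun _ => hH⟩
    · exact ⟨⊤, fun h => absurd h hq⟩
  choose Hf hHf using hHex
  set π : Finset ℕ := N.primeFactors with hπ
  set X : Finset ℕ → Subgroup G := fun T => T.inf Hf with hX
  have hXidx : ∀ T : Finset ℕ, (∀ q ∈ T, q.Prime) → (X T).index = ∏ q ∈ T, q ^ v q := by
    intro T
    induction T using Finset.induction_on with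
    | empty => intro _; simp [hX]
    | insert a T ha ih =>
      intro hT
      have hprime : a.Prime := hT a (Finset.mem_insert_self _ _)
      have hTp : ∀ q ∈ T, q.Prime := fun q hq => hT q (Finset.mem_insert_of_mem hq)
      have hXi : X (insert a T) = Hf a ⊓ X T := by
        simp [hX, Finset.inf_insert]
      rw [Finset.prod_insert ha, hXi, ← hHf a hprime, ← ih hTp]
      apply (index_inf_coprime _ _ _).1
      rw [hHf a hprime, ih hTp]
      apply Nat.Coprime.prod_right
      intro q hq
      apply Nat.Coprime.pow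
      exact (Nat.coprime_primes hprime (hTp q hq)).2 (fun h => ha (h ▸ hq))
  have hprod : ∏ q ∈ π, q ^ v q = N := by
    have := Nat.factorization_prod_pow_eq_self hN0
    rw [Finsupp.prod, Nat.support_factorization] at this
    exact this
  -- removing one factor
  have herase : ∀ (T : Finset ℕ) (p : ℕ), (p ∉ T → v p = 0) →
      ∏ q ∈ T, q ^ v q = p ^ v p * ∏ q ∈ T.erase p, q ^ v q := by
    intro T p hp
    by_cases hmem : p ∈ T
    · rw [Finset.mul_prod_erase T (fun q => q ^ v q) hmem]
    · rw [Finset.erase_eq_of_notMem hmem, hp hmem, pow_zero, one_mul]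
  have hvzero : ∀ p : ℕ, p ∉ π → v p = 0 := by
    intro p hp
    apply Finsupp.notMem_support_iff.1
    rw [Nat.support_factorization]
    exact hp
  have hπp : ∀ q ∈ π, q.Prime := fun q hq => Nat.prime_of_mem_primeFactors hq
  -- the cardinalities
  have hcardX : ∀ T : Finset ℕ, T ⊆ π → Nat.card (X T) * ∏ q ∈ T, q ^ v q = N := by
    intro T hT
    rw [← hXidx T (fun q hq => hπp q (hT hq))]
    exact Subgroup.card_mul_index _
  have hprodpos : ∀ T : Finset ℕ, T ⊆ π → 0 < ∏ q ∈ T, q ^ v q := by
    intro T hT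
    apply Finset.prod_pos
    intro q hq
    exact pow_pos (hπp q (hT hq)).pos _
  have hcard1 : ∀ p : ℕ, Nat.card (X (π.erase p)) = p ^ v p := by
    intro p
    have h1 := hcardX (π.erase p) (Finset.erase_subset _ _)
    have h2 := herase π p (hvzero p)
    rw [hprod] at h2
    apply Nat.eq_of_mul_eq_mul_right (hprodpos _ (Finset.erase_subset p π))
    rw [h1]
    exact h2
  have hcard2 : ∀ p q : ℕ, p ≠ q → Nat.card (X ((π.erase p).erase q)) = p ^ v p * q ^ v q := by
    intro p q hpq
    have hsub : (π.erase p).erase q ⊆ π :=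
      (Finset.erase_subset _ _).trans (Finset.erase_subset _ _)
    have h1 := hcardX _ hsub
    have h2 := herase π p (hvzero p)
    have h3 := herase (π.erase p) q (by
      intro hq
      apply hvzero
      intro hqπ
      exact hq (Finset.mem_erase.2 ⟨fun h => hpq h.symm, hqπ⟩))
    rw [hprod, h3] at h2
    apply Nat.eq_of_mul_eq_mul_right (hprodpos _ hsub)
    rw [h1, h2]
    ring
  have hmain : ∀ p q : ℕ, p.Prime → q.Prime → p ≠ q →
      ((X (π.erase p) : Subgroup G) : Set G) * (X (π.erase q) : Subgroup G) =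
        ((X ((π.erase p).erase q) : Subgroup G) : Set G) := by
    intro p q hp hq hpq
    apply mul_eq_of_coprime_cards
    · exact Finset.inf_mono (Finset.erase_subset _ _)
    · refine Finset.inf_mono ?_
      rw [Finset.erase_right_comm]
      exact Finset.erase_subset _ _
    · rw [hcard1, hcard1, hcard2 p q hpq]
    · rw [hcard1, hcard1]
      exact Nat.Coprime.pow _ _ ((Nat.coprime_primes hp hq).2 hpq)
  refine ⟨fun p => haveI : Fact (p : ℕ).Prime := ⟨p.2⟩;
    Sylow.ofCard (X (π.erase (p : ℕ))) (hcard1 p), ?_⟩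
  intro p q
  by_cases hpq : (p : ℕ) = (q : ℕ)
  · have h : p = q := Subtype.ext hpq
    rw [h]
  · have h1 := hmain p q p.2 q.2 hpq
    have h2 := hmain q p q.2 p.2 (Ne.symm hpq)
    have h3 : (π.erase (q : ℕ)).erase (p : ℕ) = (π.erase (p : ℕ)).erase (q : ℕ) :=
      Finset.erase_right_comm
    rw [h3] at h2
    change ((X (π.erase (p : ℕ)) : Subgroup G) : Set G) * (X (π.erase (q : ℕ)) : Subgroup G) =
      ((X (π.erase (q : ℕ)) : Subgroup G) : Set G) * (X (π.erase (p : ℕ)) : Subgroup G)
    rw [h1, h2]

end CfsgLib.Solv
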